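import Mathlib
import Cfsg.Prelude.Def_SporadicCombinatorics

/-! The hexacode of `Def_SporadicCombinatorics`, transferred to a computable model of the field with
four elements (0, 1, 2 = ω, 3 = ω²). -/

namespace Cfsg.Lib.Hexacode

open Cfsg

def addT (a b : Fin 4) : Fin 4 := Fin.ofNat 4 (a.val ^^^ b.val)

def mulT (a b : Fin 4) : Fin 4 :=
  if a = 0 ∨ b = 0 then 0 else Fin.ofNat 4 ((a.val - 1 + (b.val - 1)) % 3 + 1)

def gens : Fin 3 → Fin 6 → Fin 4 := ![![2, 3, 3, 2, 3, 2], ![3, 2, 2, 3, 3, 2], ![3, 2, 3, 2, 2, 3]]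

def comb (a b c : Fin 4) : Fin 6 → Fin 4 := fun i =>
  addT (addT (mulT a (gens 0 i)) (mulT b (gens 1 i))) (mulT c (gens 2 i))

def isWord (v : Fin 6 → Fin 4) : Bool :=
  decide (v 3 = addT (addT (v 0) (v 1)) (v 2)) &&
    (decide (v 4 = addT (addT (mulT 3 (v 0)) (mulT 2 (v 1))) (v 2)) &&
      decide (v 5 = addT (addT (mulT 2 (v 0)) (mulT 3 (v 1))) (v 2)))

theorem isWord_comb : ∀ a b c, isWord (comb a b c) = true := by decide +kernel

theorem comb_surj : ∀ x y z : Fin 4, ∃ a b c, comb a b c 0 = x ∧ comb a b c 1 = y ∧ comb a b c 2 = z := by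
  decide +kernel

theorem isWord_iff (v : Fin 6 → Fin 4) : isWord v = true ↔ ∃ a b c, v = comb a b c := by
  refine ⟨fun h => ?_, fun ⟨a, b, c, h⟩ => h ▸ isWord_comb a b c⟩
  obtain ⟨a, b, c, h0, h1, h2⟩ := comb_surj (v 0) (v 1) (v 2)
  have h' := isWord_comb a b c
  simp only [isWord, Bool.and_eq_true, decide_eq_true_eq, h0, h1, h2] at h h'
  refine ⟨a, b, c, funext fun i => ?_⟩
  fin_cases i
  · exact h0.symm
  · exact h1.symm
  · exact h2.symm
  · exact h.1.trans h'.1.symm
  · exact h.2.1.trans h'.2.1.symm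
  · exact h.2.2.trans h'.2.2.symm

variable {F : Type*} [Field F]

/-- The field element with a given code. -/
def phi (ω : F) : Fin 4 → F := ![0, 1, ω, ω ^ 2]

variable [Fintype F] (hF : Fintype.card F = 4) (ω : F) (hω : ω ^ 2 + ω + 1 = 0)

omit [Fintype F] in
theorem phi_vals : phi ω 0 = 0 ∧ phi ω 1 = 1 ∧ phi ω 2 = ω ∧ phi ω 3 = ω ^ 2 :=
  ⟨rfl, rfl, rfl, rfl⟩

include hF in
theorem two_eq_zero : (2 : F) = 0 := by
  have h : ((4 : ℕ) : F) = 0 := by rw [← hF]; exact Nat.cast_card_eq_zero F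
  have : (2 : F) * 2 = 0 := by push_cast at h; linear_combination h
  exact (mul_eq_zero.1 this).elim id id

include hF hω in
theorem omega_cube : ω ^ 3 = 1 ∧ ω ^ 2 = ω + 1 := by
  have := two_eq_zero hF
  exact ⟨by linear_combination (ω - 1) * hω, by linear_combination hω - (ω + 1) * this⟩

include hF hω in
theorem phi_mul (a b : Fin 4) : phi ω (mulT a b) = phi ω a * phi ω b := by
  have h3 := (omega_cube hF ω hω).1
  obtain ⟨e0, e1, e2, e3⟩ := phi_vals (F := F) ω
  fin_cases a <;> fin_cases b <;> simp [mulT, Fin.ofNat, e0, e1, e2, e3] <;> grind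

include hF hω in
theorem phi_add (a b : Fin 4) : phi ω (addT a b) = phi ω a + phi ω b := by
  have h2 := two_eq_zero hF
  obtain ⟨e0, e1, e2, e3⟩ := phi_vals (F := F) ω
  fin_cases a <;> fin_cases b <;> simp [addT, Fin.ofNat, e0, e1, e2, e3] <;> grind

include hF hω in
theorem phi_injective : Function.Injective (phi ω) := by
  have h2 := two_eq_zero hF
  have h3 := (omega_cube hF ω hω).1
  have h1 : (1 : F) ≠ 0 := one_ne_zero
  intro a b h
  fin_cases a <;> fin_cases b <;> simp [phi] at h ⊢ <;> grind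

include hF hω in
theorem phi_bijective : Function.Bijective (phi ω) :=
  (Fintype.bijective_iff_injective_and_card _).2 ⟨phi_injective hF ω hω, by simp [hF]⟩

include hF hω in
theorem phi_eq_zero {a : Fin 4} : phi ω a = 0 ↔ a = 0 :=
  ⟨fun h => phi_injective hF ω hω (h.trans rfl), fun h => h ▸ rfl⟩

include hF hω in
theorem mem_iff (v : Fin 6 → Fin 4) : phi ω ∘ v ∈ hexacode F ω ↔ isWord v = true := by
  have hg : ∀ a b c, phi ω a • ![ω, ω ^ 2, ω ^ 2, ω, ω ^ 2, ω] +
      (phi ω b • ![ω ^ 2, ω, ω, ω ^ 2, ω ^ 2, ω] + phi ω c • ![ω ^ 2, ω, ω ^ 2, ω, ω, ω ^ 2]) =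
      phi ω ∘ comb a b c := by
    intro a b c
    funext i
    simp only [Function.comp_apply, comb, phi_add hF ω hω, phi_mul hF ω hω, Pi.add_apply, Pi.smul_apply,
      smul_eq_mul]
    fin_cases i <;> simp [gens, phi] <;> ring
  rw [hexacode, Submodule.mem_span_triple, isWord_iff]
  constructor
  · rintro ⟨a, b, c, h⟩
    obtain ⟨a', rfl⟩ := (phi_bijective hF ω hω).2 a
    obtain ⟨b', rfl⟩ := (phi_bijective hF ω hω).2 b
    obtain ⟨c', rfl⟩ := (phi_bijective hF ω hω).2 c
    refine ⟨a', b', c', funext fun i => phi_injective hF ω hω ?_⟩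
    have h1 : phi ω ∘ comb a' b' c' = phi ω ∘ v := by rw [← hg, ← h]; abel
    exact (congrFun h1 i).symm
  · rintro ⟨a, b, c, rfl⟩
    exact ⟨phi ω a, phi ω b, phi ω c, by rw [← hg]; abel⟩

include hF hω in
theorem exists_model (x : Fin 6 → F) : ∃ v, x = phi ω ∘ v := by
  choose v hv using fun i => (phi_bijective hF ω hω).2 (x i)
  exact ⟨v, funext fun i => (hv i).symm⟩

/-- Model vector of weight support. -/
def wt (v : Fin 6 → Fin 4) : ℕ := (Finset.univ.filter fun i => v i ≠ 0).card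

def combs : List (Fin 6 → Fin 4) :=
  ((List.finRange 4).flatMap fun a => (List.finRange 4).flatMap fun b => (List.finRange 4).map fun c =>
    comb a b c)

theorem combs_facts : combs.Pairwise (fun v w => ¬ ∀ i, v i = w i) ∧ combs.length = 64 ∧
    (∀ a b c, wt (comb a b c) = 0 ∧ (∀ i, comb a b c i = 0) ∨ wt (comb a b c) = 4 ∨ wt (comb a b c) = 6) ∧
    (combs.filter fun v => decide (wt v = 4)).length = 45 ∧
    (combs.filter fun v => decide (wt v = 6)).length = 18 := by
  decide +kernel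

include hF hω in
theorem ncard_code [DecidableEq F] (P : ℕ → Prop) [DecidablePred P] :
    {x : Fin 6 → F | x ∈ hexacode F ω ∧ P (Finset.univ.filter fun i => x i ≠ 0).card}.ncard =
      (combs.filter fun v => decide (P (wt v))).length := by
  have hnd : combs.Nodup := combs_facts.1.imp fun h e => h fun i => congrFun e i
  have hwt : ∀ v, (Finset.univ.filter fun i => (phi ω ∘ v) i ≠ 0).card = wt v := fun v => by
    simp [wt, phi_eq_zero hF ω hω]
  have hset : {x : Fin 6 → F | x ∈ hexacode F ω ∧ P (Finset.univ.filter fun i => x i ≠ 0).card} =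
      (fun v => phi ω ∘ v) '' ((combs.filter fun v => decide (P (wt v))).toFinset : Set _) := by
    ext x
    obtain ⟨v, rfl⟩ := exists_model hF ω hω x
    have hinj : Function.Injective fun v : Fin 6 → Fin 4 => phi ω ∘ v :=
      (phi_injective hF ω hω).comp_left
    rw [Set.mem_ofPred_eq, hinj.mem_set_image, mem_iff hF ω hω, hwt, isWord_iff]
    simp [combs, eq_comm]
  rw [hset, Set.ncard_image_of_injective _ (phi_injective hF ω hω).comp_left, Set.ncard_coe_finset,
    List.toFinset_card_of_nodup (hnd.filter _)]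

end Cfsg.Lib.Hexacode
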