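import Cfsg.Agent.Lib.Hexacode.Basic

/-! The monomial group of the hexacode. -/

namespace Cfsg.Lib.Hexacode

open Cfsg

/-- Model of a monomial map: `f` is the inverse of the coordinate permutation. -/
def mon (f : Fin 6 → Fin 6) (c v : Fin 6 → Fin 4) : Fin 6 → Fin 4 := fun i => mulT (c i) (v (f i))

def presM (f : Fin 6 → Fin 6) (c : Fin 6 → Fin 4) : Bool :=
  isWord (mon f c (gens 0)) && (isWord (mon f c (gens 1)) && isWord (mon f c (gens 2)))

/-- The nonzero scalar vector with a given number. -/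
def cvec (n : ℕ) : Fin 6 → Fin 4 := fun i => Fin.ofNat 4 (n / 3 ^ i.val % 3 + 1)

/-- For each ordered triple, a scalar vector completing the 3-cycle to an automorphism. -/
def cycleTable : List (Fin 6 × Fin 6 × Fin 6 × ℕ) :=
  [
(0, 1, 2, 405), (0, 1, 3, 567), (0, 1, 4, 45), (0, 1, 5, 63), (0, 2, 1, 567), (0, 2, 3, 405), (0, 2, 4, 420), (0, 2, 5, 426), (0, 3, 1, 405), (0, 3, 2, 567), (0, 3, 4, 624), (0, 3, 5, 600), (0, 4, 1, 63), (0, 4, 2, 132), (0, 4, 3, 210), (0, 4, 5, 45), (0, 5, 1, 45), (0, 5, 2, 552), (0, 5, 3, 312), (0, 5, 4, 63), (1, 0, 2, 567), (1, 0, 3, 405), (1, 0, 4, 63), (1, 0, 5, 45), (1, 2, 0, 405), (1, 2, 3, 567), (1, 2, 4, 312), (1, 2, 5, 210), (1, 3, 0, 567), (1, 3, 2, 405), (1, 3, 4, 552), (1, 3, 5, 132), (1, 4, 0, 45), (1, 4, 2, 600), (1, 4, 3, 426), (1, 4, 5, 63), (1, 5, 0, 63), (1, 5, 2, 624), (1, 5, 3, 420), (1, 5, 4, 45), (2, 0, 1, 405), (2, 0, 3, 567), (2, 0, 4, 132), (2, 0, 5, 552), (2, 1, 0, 567), (2,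 1, 3, 405), (2, 1, 4, 600), (2, 1, 5, 624), (2, 3, 0, 405), (2, 3, 1, 567), (2, 3, 4, 366), (2, 3, 5, 723), (2, 4, 0, 420), (2, 4, 1, 312), (2, 4, 3, 723), (2, 4, 5, 366), (2, 5, 0, 426), (2, 5, 1, 210), (2, 5, 3, 366), (2, 5, 4, 723), (3, 0, 1, 567), (3, 0, 2, 405), (3, 0, 4, 210), (3, 0, 5, 312), (3, 1, 0, 405), (3, 1, 2, 567), (3, 1, 4, 426), (3, 1, 5, 420), (3, 2, 0, 567), (3, 2, 1, 405), (3, 2, 4, 723), (3, 2, 5, 366), (3, 4, 0, 624), (3, 4, 1, 552), (3, 4, 2, 366), (3, 4, 5, 723), (3, 5, 0, 600), (3, 5, 1, 132), (3, 5, 2, 723), (3, 5, 4, 366), (4, 0, 1, 45), (4, 0, 2, 420), (4, 0, 3, 624), (4, 0, 5, 63), (4, 1, 0, 63), (4, 1, 2, 312), (4, 1, 3, 552), (4, 1, 5, 45), (4, 2, 0, 132), (4, 2, 1, 600), (4, 2, 3, 366), (4, 2, 5, 723), (4, 3, 0, 210), (4, 3, 1, 426), (4, 3, 2, 723), (4, 3, 5, 366), (4, 5, 0, 45), (4, 5, 1, 63), (4, 5, 2, 366), (4, 5, 3, 723), (5, 0, 1, 63), (5, 0, 2, 426), (5, 0, 3, 600), (5, 0, 4, 45), (5, 1, 0,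 45), (5, 1, 2, 210), (5, 1, 3, 132), (5, 1, 4, 63), (5, 2, 0, 552), (5, 2, 1, 624), (5, 2, 3, 723), (5, 2, 4, 366), (5, 3, 0, 312), (5, 3, 1, 420), (5, 3, 2, 366), (5, 3, 4, 723), (5, 4, 0, 63), (5, 4, 1, 45), (5, 4, 2, 723), (5, 4, 3, 366)]

theorem diag_check : ∀ n < 729, presM id (cvec n) = true → ∀ i, cvec n i = cvec n 0 := by
  decide +kernel

theorem transp_check : ∀ n < 729, presM (Equiv.swap (0 : Fin 6) 1) (cvec n) = false := by
  decide +kernel

theorem cycle_check : ∀ a b c : Fin 6, a ≠ b → b ≠ c → a ≠ c → ∃ e ∈ cycleTable,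
    (e.1 = a ∧ e.2.1 = b ∧ e.2.2.1 = c) ∧ e.2.2.2 < 729 ∧
      presM (fun i => Equiv.swap b c (Equiv.swap a b i)) (cvec e.2.2.2) = true := by
  decide +kernel

theorem cvec_ne_zero : ∀ n < 729, ∀ i, cvec n i ≠ 0 := by decide +kernel

theorem exists_cvec (c : Fin 6 → Fin 4) (h : ∀ i, c i ≠ 0) : ∃ n < 729, cvec n = c := by
  have h1 : ∀ i, 1 ≤ (c i).val ∧ (c i).val < 4 := fun i =>
    ⟨Nat.one_le_iff_ne_zero.2 fun e => h i (Fin.ext e), (c i).isLt⟩
  have := h1 0; have := h1 1; have := h1 2; have := h1 3; have := h1 4; have := h1 5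
  refine ⟨((c 0).val - 1) + 3 * ((c 1).val - 1) + 9 * ((c 2).val - 1) + 27 * ((c 3).val - 1) +
    81 * ((c 4).val - 1) + 243 * ((c 5).val - 1), by omega, funext fun i => Fin.ext ?_⟩
  fin_cases i <;> simp [cvec, Fin.ofNat] <;> omega

theorem eq_swap_mul {σ : Equiv.Perm (Fin 6)} (h : σ.IsThreeCycle) :
    ∃ a b c, a ≠ b ∧ b ≠ c ∧ a ≠ c ∧ σ = Equiv.swap a b * Equiv.swap b c := by
  have h3 : ∀ x, σ (σ (σ x)) = x := fun x => by
    have := congrArg (fun g : Equiv.Perm (Fin 6) => g x) (h.orderOf ▸ pow_orderOf_eq_one σ : σ ^ 3 = 1)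
    simpa [pow_succ, Equiv.Perm.mul_apply] using this
  obtain ⟨a, ha⟩ : σ.support.Nonempty := Finset.card_pos.1 (by rw [h.card_support]; norm_num)
  have hab : a ≠ σ a := fun e => Equiv.Perm.mem_support.1 ha e.symm
  have hbc : σ a ≠ σ (σ a) := fun e => hab (σ.injective e)
  have hac : a ≠ σ (σ a) := fun e => hab (by
    conv_lhs => rw [← h3 a]
    rw [← e])
  have hsupp : σ.support = {a, σ a, σ (σ a)} := by
    refine (Finset.eq_of_subset_of_card_le ?_ ?_).symm
    · simp [Finset.insert_subset_iff, Equiv.Perm.mem_support, h3, hab.symm, hbc.symm, hac]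
    · rw [h.card_support, Finset.card_insert_of_notMem (by simp [hab, hac]), Finset.card_pair hbc]
  refine ⟨a, σ a, σ (σ a), hab, hbc, hac, Equiv.ext fun x => ?_⟩
  rw [Equiv.Perm.mul_apply]
  by_cases hx : x ∈ σ.support
  · rw [hsupp] at hx
    simp only [Finset.mem_insert, Finset.mem_singleton] at hx
    rcases hx with rfl | rfl | rfl
    · rw [Equiv.swap_apply_of_ne_of_ne hab hac, Equiv.swap_apply_left]
    · rw [Equiv.swap_apply_left, Equiv.swap_apply_of_ne_of_ne hac.symm hbc.symm]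
    · rw [Equiv.swap_apply_right, Equiv.swap_apply_right, h3]
  · have hx' := hx
    rw [hsupp] at hx'
    simp only [Finset.mem_insert, Finset.mem_singleton, not_or] at hx'
    rw [Equiv.Perm.notMem_support.1 hx, Equiv.swap_apply_of_ne_of_ne hx'.2.1 hx'.2.2,
      Equiv.swap_apply_of_ne_of_ne hx'.1 hx'.2.1]

variable {F : Type*} [Field F] [Fintype F] (hF : Fintype.card F = 4) (ω : F) (hω : ω ^ 2 + ω + 1 = 0)

/-- The monomial map given by `σ` and `c` preserves the hexacode. -/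
def Pres (σ : Equiv.Perm (Fin 6)) (c : Fin 6 → Fˣ) : Prop :=
  ∀ x ∈ hexacode F ω, monomialMap σ c x ∈ hexacode F ω

include hF hω in
theorem pres_iff (σ : Equiv.Perm (Fin 6)) (c : Fin 6 → Fˣ) (d : Fin 6 → Fin 4)
    (hd : ∀ i, phi ω (d i) = c i) : Pres ω σ c ↔ presM σ.symm d = true := by
  have hmon : ∀ v, monomialMap σ c (phi ω ∘ v) = phi ω ∘ mon σ.symm d v := fun v => funext fun i => by
    simp [monomialMap, mon, phi_mul hF ω hω, hd]
  have hgen : ∀ k, phi ω ∘ gens k ∈ hexacode F ω := fun k => by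
    rw [mem_iff hF ω hω]; revert k; decide +kernel
  constructor
  · intro h
    simp only [presM, Bool.and_eq_true, ← mem_iff hF ω hω, ← hmon]
    exact ⟨h _ (hgen 0), h _ (hgen 1), h _ (hgen 2)⟩
  · intro h x hx
    simp only [presM, Bool.and_eq_true, ← mem_iff hF ω hω, ← hmon] at h
    have hg : ∀ k, phi ω ∘ gens k =
        ![![ω, ω ^ 2, ω ^ 2, ω, ω ^ 2, ω], ![ω ^ 2, ω, ω, ω ^ 2, ω ^ 2, ω],
          ![ω ^ 2, ω, ω ^ 2, ω, ω, ω ^ 2]] k := by
      intro k; funext i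
      fin_cases k <;> fin_cases i <;> rfl
    simp only [hg] at h
    rw [hexacode] at hx
    obtain ⟨a, b, e, rfl⟩ := Submodule.mem_span_triple.1 hx
    have hlin : ∀ (u v w : Fin 6 → F), monomialMap σ c (a • u + b • v + e • w) =
        a • monomialMap σ c u + b • monomialMap σ c v + e • monomialMap σ c w := fun u v w => by
      funext i; simp [monomialMap]; ring
    rw [hlin]
    exact add_mem (add_mem (Submodule.smul_mem _ a h.1) (Submodule.smul_mem _ b h.2.1))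
      (Submodule.smul_mem _ e h.2.2)

include hF hω in
theorem exists_model_units (c : Fin 6 → Fˣ) : ∃ n < 729, ∀ i, phi ω (cvec n i) = c i := by
  obtain ⟨d, hd⟩ := exists_model hF ω hω fun i => (c i : F)
  have hne : ∀ i, d i ≠ 0 := fun i e => (c i).ne_zero
    ((congrFun hd i).trans (by rw [Function.comp_apply, e]; exact (phi_vals ω).1))
  obtain ⟨n, hn, rfl⟩ := exists_cvec d hne
  exact ⟨n, hn, fun i => (congrFun hd i).symm⟩

include hF hω in
theorem diag_scalar (c : Fin 6 → Fˣ) (h : Pres ω 1 c) (i : Fin 6) : c i = c 0 := by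
  obtain ⟨n, hn, hd⟩ := exists_model_units hF ω hω c
  have h' := (pres_iff hF ω hω 1 c _ hd).1 h
  exact Units.ext (by rw [← hd i, ← hd 0, diag_check n hn h' i])

omit [Fintype F] in
theorem scalar_mul {σ : Equiv.Perm (Fin 6)} {c : Fin 6 → Fˣ} (h : Pres ω σ c) (u : Fˣ) :
    Pres ω σ fun i => u * c i := fun x hx => by
  have := Submodule.smul_mem _ (u : F) (h x hx)
  have he : monomialMap σ (fun i => u * c i) x = (u : F) • monomialMap σ c x := by
    funext i; simp [monomialMap, mul_assoc]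
  rwa [he]

omit [Fintype F] in
theorem pres_mul {σ τ : Equiv.Perm (Fin 6)} {c d : Fin 6 → Fˣ} (hσ : Pres ω σ c) (hτ : Pres ω τ d) :
    Pres ω (σ * τ) fun i => c i * d (σ.symm i) := fun x hx => by
  have := hσ _ (hτ x hx)
  have he : monomialMap (σ * τ) (fun i => c i * d (σ.symm i)) x = monomialMap σ c (monomialMap τ d x) := by
    funext i
    simp [monomialMap, mul_assoc, Equiv.Perm.mul_def, Equiv.symm_trans_apply]
  rwa [he]

include hF hω in
theorem fibre_scalar {σ : Equiv.Perm (Fin 6)} {c c' : Fin 6 → Fˣ} (h : Pres ω σ c) (h' : Pres ω σ c') :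
    ∃ u : Fˣ, c' = fun i => u * c i := by
  have hdiag : Pres ω 1 fun i => c' i / c i := by
    intro x hx
    have hinj : Function.Injective fun y : ↥(hexacode F ω) =>
        (⟨monomialMap σ c y.1, h y.1 y.2⟩ : ↥(hexacode F ω)) := by
      intro y z e
      refine Subtype.ext (funext fun i => ?_)
      have e' := congrFun (congrArg Subtype.val e) (σ i)
      simpa [monomialMap] using e'
    obtain ⟨⟨y, hy⟩, e⟩ := (Finite.injective_iff_surjective.1 hinj) ⟨x, hx⟩
    have he : monomialMap 1 (fun i => c' i / c i) x = monomialMap σ c' y := by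
      have e' : monomialMap σ c y = x := congrArg Subtype.val e
      rw [← e']
      funext i
      simp [monomialMap, ← Equiv.Perm.inv_def, ← mul_assoc, div_eq_mul_inv]
    rw [he]
    exact h' y hy
  refine ⟨c' 0 / c 0, funext fun i => ?_⟩
  have := diag_scalar hF ω hω _ hdiag i
  rw [← this, div_mul_cancel]

/-- The coordinate permutations occurring in the monomial group. -/
def permGroup : Subgroup (Equiv.Perm (Fin 6)) :=
  Subgroup.closure {σ | ∃ c : Fin 6 → Fˣ, Pres ω σ c}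

omit [Fintype F] in
theorem mem_permGroup {σ : Equiv.Perm (Fin 6)} : σ ∈ permGroup ω ↔ ∃ c : Fin 6 → Fˣ, Pres ω σ c := by
  refine ⟨fun h => ?_, fun h => Subgroup.subset_closure h⟩
  rw [permGroup, ← Subgroup.mem_toSubmonoid, Subgroup.closure_toSubmonoid_of_finite] at h
  induction h using Submonoid.closure_induction with
  | mem x hx => exact hx
  | one => exact ⟨fun _ => 1, fun x hx => by
      rwa [show monomialMap (1 : Equiv.Perm (Fin 6)) (fun _ => (1 : Fˣ)) x = x from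
        funext fun i => by simp [monomialMap, Equiv.Perm.one_def]]⟩
  | mul x y _ _ hx hy =>
    obtain ⟨c, hc⟩ := hx
    obtain ⟨d, hd⟩ := hy
    exact ⟨_, pres_mul ω hc hd⟩

include hF hω in
theorem permGroup_eq : permGroup (F := F) ω = alternatingGroup (Fin 6) := by
  have hle : alternatingGroup (Fin 6) ≤ permGroup (F := F) ω := by
    rw [← Equiv.Perm.closure_three_cycles_eq_alternating, Subgroup.closure_le]
    intro σ hσ
    obtain ⟨a, b, c, hab, hbc, hac, rfl⟩ := eq_swap_mul hσ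
    obtain ⟨e, -, -, hn, he⟩ := cycle_check a b c hab hbc hac
    have hne : ∀ i, phi ω (cvec e.2.2.2 i) ≠ 0 := fun i h0 =>
      cvec_ne_zero _ hn i ((phi_eq_zero hF ω hω).1 h0)
    refine (mem_permGroup ω).2 ⟨fun i => Units.mk0 _ (hne i), ?_⟩
    rw [pres_iff hF ω hω _ _ (cvec e.2.2.2) fun i => rfl]
    exact he
  refine le_antisymm (fun σ hσ => ?_) hle
  by_contra h
  have hswap : Equiv.swap (0 : Fin 6) 1 ∈ permGroup (F := F) ω := by
    have hs : σ * Equiv.swap (0 : Fin 6) 1 ∈ alternatingGroup (Fin 6) := by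
      rw [Equiv.Perm.mem_alternatingGroup, map_mul, Equiv.Perm.sign_swap (by decide)]
      rcases Int.units_eq_one_or (Equiv.Perm.sign σ) with e | e
      · exact absurd (Equiv.Perm.mem_alternatingGroup.2 e) h
      · rw [e]; rfl
    simpa using (permGroup (F := F) ω).mul_mem ((permGroup (F := F) ω).inv_mem hσ) (hle hs)
  obtain ⟨c, hc⟩ := (mem_permGroup ω).1 hswap
  obtain ⟨n, hn, hd⟩ := exists_model_units hF ω hω c
  have h' := (pres_iff hF ω hω _ c _ hd).1 hc
  rw [Equiv.symm_swap, transp_check n hn] at h'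
  exact Bool.false_ne_true h'

include hF hω in
theorem card_monomial :
    Nat.card {f : Equiv.Perm (Fin 6) × (Fin 6 → Fˣ) // Pres ω f.1 f.2} = 1080 := by
  have hmem : ∀ σ : ↥(alternatingGroup (Fin 6)), ∃ c : Fin 6 → Fˣ, Pres ω σ.1 c := fun σ => by
    rw [← mem_permGroup, permGroup_eq hF ω hω]; exact σ.2
  choose c hc using hmem
  have hbij : Function.Bijective fun p : ↥(alternatingGroup (Fin 6)) × Fˣ =>
      (⟨(p.1.1, fun i => p.2 * c p.1 i), scalar_mul ω (hc p.1) p.2⟩ :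
        {f : Equiv.Perm (Fin 6) × (Fin 6 → Fˣ) // Pres ω f.1 f.2}) := by
    constructor
    · rintro ⟨σ, u⟩ ⟨τ, v⟩ e
      simp only [Subtype.mk.injEq, Prod.mk.injEq] at e
      obtain rfl := Subtype.ext e.1
      exact Prod.ext rfl (mul_right_cancel (congrFun e.2 0))
    · rintro ⟨⟨σ, d⟩, hd⟩
      have hσ : σ ∈ alternatingGroup (Fin 6) := by
        rw [← permGroup_eq hF ω hω]; exact (mem_permGroup ω).2 ⟨d, hd⟩
      obtain ⟨u, hu⟩ := fibre_scalar hF ω hω (hc ⟨σ, hσ⟩) hd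
      exact ⟨(⟨σ, hσ⟩, u), Subtype.ext (Prod.ext rfl hu.symm)⟩
  rw [← Nat.card_eq_of_bijective _ hbij, Nat.card_prod, nat_card_alternatingGroup, Nat.card_fin,
    Nat.card_units, Nat.card_eq_fintype_card, hF]
  rfl

end Cfsg.Lib.Hexacode
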